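/-
The stabiliser of a point of the Rudvalis group contains a simple subgroup of order 17971200.
-/
import Cfsg.Agent.Lib.RuGrp.Lifts
import Cfsg.Agent.Lib.PermKit.Graph
import Cfsg.Agent.Lib.PermKit.Card
import Cfsg.Prelude.Def_Exceptional

set_option autoImplicit false
set_option maxRecDepth 100000

namespace Cfsg.Agent.Lib.RuGrp

open Cfsg.Agent.Lib.Compute Cfsg.Agent.Lib.PermKit Equiv MulAction

/-- The point stabiliser. -/
noncomputable abbrev SS := MulAction.stabilizer H (0 : Fin 4060)

/-- The neighbours of `0`. -/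
def shf (i : Fin 1755) : Fin 4060 := ⟨1 + i.val, by have := i.isLt; omega⟩

theorem shf_inj : Function.Injective shf := fun a b h => by
  have h1 : 1 + a.val = 1 + b.val := congrArg Fin.val h
  exact Fin.ext (by omega)

/-- Compatible pairs. -/
noncomputable def CC : Subgroup (SS × Perm (Fin 1755)) where
  carrier := {p | ∀ i, ((p.1 : H) : Perm (Fin 4060)) (shf i) = shf (p.2 i)}
  one_mem' := fun _ => rfl
  mul_mem' := fun {a b} ha hb i => by
    show ((a.1 : H) : Perm (Fin 4060)) (((b.1 : H) : Perm (Fin 4060)) (shf i)) = shf (a.2 (b.2 i))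
    rw [hb, ha]
  inv_mem' := fun {a} ha i => by
    show ((a.1 : H) : Perm (Fin 4060))⁻¹ (shf i) = shf (a.2⁻¹ i)
    have h := ha (a.2⁻¹ i)
    have h1 : a.2 (a.2⁻¹ i) = i := by simp
    rw [h1] at h
    rw [Perm.inv_eq_iff_eq]
    exact h.symm

theorem memH_of {f : ℕ → ℕ} {L : List (ℕ × ℕ)} (hf : checkPerm 4060 f = true)
    (hb : benesOK 4060 2 (xorRows rowsR) f L = true) : E.perm f ∈ H := by
  rw [H_eq]
  have h := aut_of_xor (perm_mem_autG_benes E hf hb)
  intro r hr a b hab
  have hr0 : r = 0 := by omega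
  subst hr0
  exact h 0 (by omega) a b hab

theorem fix_of {f : ℕ → ℕ} (hf : checkPerm 4060 f = true) (h0 : f 0 = 0) : E.perm f 0 = 0 := by
  rw [E.perm_apply hf]
  show E.pt (f 0) = 0
  rw [h0]
  rfl

/-- The lift of the first generator. -/
noncomputable def la : SS := ⟨⟨E.perm fLA, memH_of pLA bLA⟩, fix_of pLA fixLA⟩

/-- The lift of the second generator. -/
noncomputable def lb : SS := ⟨⟨E.perm fLB, memH_of pLB bLB⟩, fix_of pLB fixLB⟩

theorem compat_mem {f g : ℕ → ℕ} (hf : checkPerm 4060 f = true) (hg : checkPerm 1755 g = true)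
    (hc : allBelow (fun i => Nat.beq (f (Nat.add 1 i)) (Nat.add 1 (g i))) 1755 = true) (i : Fin 1755) :
    E.perm f (shf i) = shf (E1.perm g i) := by
  apply Fin.ext
  show E.idx (E.perm f (shf i)) = 1 + E1.idx (E1.perm g i)
  rw [E.idx_perm_apply hf, E1.idx_perm_apply hg]
  exact Nat.eq_of_beq_eq_true ((allBelow_iff _ _).1 hc i.val i.isLt)

theorem la_mem : (la, E1.perm fa1) ∈ CC := compat_mem pLA pa1 compatA

theorem lb_mem : (lb, E1.perm fb1) ∈ CC := compat_mem pLB pb1 compatB

theorem CC_inj1 (p : SS × Perm (Fin 1755)) (hp : p ∈ CC) (h1 : p.1 = 1) : p.2 = 1 := by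
  refine Equiv.ext fun i => shf_inj ?_
  have h := hp i
  rw [h1] at h
  exact h.symm

theorem CC_inj2 (p : SS × Perm (Fin 1755)) (hp : p ∈ CC) (h2 : p.2 = 1) : p.1 = 1 := by
  set τ : Perm (Fin 4060) := ((p.1 : H) : Perm (Fin 4060)) with hτ
  have h0 : τ 0 = 0 := p.1.2
  have hs : ∀ i, τ (shf i) = shf i := fun i => by
    have := hp i
    rw [h2] at this
    exact this
  have hst : τ ∈ stabN E (autG E rows 1) (List.range 1756) := by
    refine ⟨by rw [← H_eq]; exact (p.1 : H).2, ?_⟩
    intro a ha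
    obtain ⟨x, hx, rfl⟩ := List.mem_map.1 ha
    rw [List.mem_range] at hx
    rcases Nat.eq_zero_or_pos x with rfl | hpos
    · exact h0
    · have h3 := hs ⟨x - 1, by omega⟩
      have e : shf ⟨x - 1, by omega⟩ = E.pt x := Fin.ext (by
        show 1 + (x - 1) = E.idx (E.pt x)
        rw [E.idx_pt x (by omega)]
        omega)
      rw [← e]
      exact h3
  have h1 := final_bot Lf2 hst
  exact Subtype.ext (Subtype.ext h1)

/-- The elements preserving the relation. -/
noncomputable def KR : Subgroup SS :=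
  (autG E rowsR 2).comap ((Subgroup.subtype H).comp (Subgroup.subtype (MulAction.stabilizer H (0 : Fin 4060))))

theorem la_K : la ∈ KR := aut_of_xor (perm_mem_autG_benes E pLA bLA)

theorem lb_K : lb ∈ KR := aut_of_xor (perm_mem_autG_benes E pLB bLB)

theorem exists_out : ∃ x : SS, x ∉ KR := by
  obtain ⟨σ, hσ, hc⟩ := InK.word gc_in outW
  have hfix : σ 0 = 0 := by
    have h := hc (0 : Fin 4060)
    have h1 : E.idx (0 : Fin 4060) = 0 := rfl
    rw [h1, out_fix] at h
    exact Fin.ext h.symm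
  refine ⟨⟨⟨σ, hσ⟩, hfix⟩, fun hK => ?_⟩
  have hK' : σ ∈ autG E rowsR 2 := hK
  have hi0 : i0 < 4060 := by decide
  have hj0 : j0 < 4060 := by decide
  have h1 : RelR E rowsR 1 (E.pt i0) (E.pt j0) := by
    unfold RelR
    rw [E.idx_pt _ hi0, E.idx_pt _ hj0]
    exact out_rel
  have h2 := hK' 1 (by omega) _ _ h1
  have h3 : (row2 (E.idx (σ (E.pt i0)))).testBit (E.idx (σ (E.pt j0))) = true := h2
  rw [← hc, ← hc, E.idx_pt _ hi0, E.idx_pt _ hj0, out_not] at h3
  exact absurd h3 (by simp)

theorem card_SS : Nat.card SS = 35942400 :=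
  card_stab_of_trans inferInstance _ (d := 4060) (by simp) (by rw [card_H]) (by norm_num)

/-- A simple subgroup of order `17971200`. -/
theorem exists_tits : ∃ T : Subgroup SS, Cfsg.IsTits T := by
  obtain ⟨N, hNK, ⟨e⟩⟩ := exists_sub_of_lifts CC la_mem lb_mem CC_inj1 CC_inj2 KR la_K lb_K
  have e' : N ≃* T1 := e
  have hcard : Nat.card N = Nat.card T1 := Nat.card_congr e'.toEquiv
  have hne : N ≠ ⊤ := by
    rintro rfl
    obtain ⟨x, hx⟩ := exists_out
    exact hx (hNK (Subgroup.mem_top x))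
  have h1 := N.card_mul_index
  rw [card_SS] at h1
  have hidx : N.index ≠ 1 := by
    rwa [Ne, Subgroup.index_eq_one]
  have h2 : 17971200 ≤ Nat.card N := by
    rw [hcard]
    exact lower
  have h3 : Nat.card N = 17971200 := by
    have hi : 2 ≤ N.index := by
      have h0 : N.index ≠ 0 := by
        intro h
        rw [h] at h1
        omega
      omega
    have h4 : Nat.card N * 2 ≤ Nat.card N * N.index := Nat.mul_le_mul_left _ hi
    omega
  have hT : Nat.card T1 = 17971200 := by rw [← hcard, h3]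
  haveI : Nontrivial T1 := by
    apply (Finite.one_lt_card_iff_nontrivial).1
    rw [hT]
    norm_num
  have hsimple : IsSimpleGroup T1 := by
    refine isSimple_of_gens (S := {E1.perm fa1, E1.perm fb1}) rfl (p := 13) (a := 1) (by norm_num) ?_ ?_ ?_
    · rw [Nat.card_eq_fintype_card, Fintype.card_fin]
      norm_num
    · rw [hT]
      norm_num
    · rintro s (rfl | rfl)
      · exact order_a1
      · exact order_b1
  exact ⟨N, MulEquiv.isSimpleGroup e', h3⟩

end Cfsg.Agent.Lib.RuGrp
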